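import Cfsg.Agent.H421.Uni.Wt
import Cfsg.Agent.H45.Uni.Minor
import Cfsg.Agent.H45.Uni.Deg
import Cfsg.Agent.H45.UniE.Main

/-!
# Spin groups of type `B_m` for S3442: interfaces

* `SpinMod m k` : an explicit spin module (matrices `E i`, `(E i)ᵀ`, `P` satisfying the Clifford relations of `quadOdd m k`);
* `BSpin m k` : the simply connected group of type `B_m` over `k` with its fundamental functions and the projection to
  `GG m k = Ω_{2m+1}(k)`.
-/

set_option autoImplicit false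

namespace Cfsg.Agent.H45.BS

open Matrix Cfsg.Agent.H45.Uni Cfsg.Agent.H45.UniE

/-- A spin module of dimension `2 ^ m`: annihilation operators `E i`, creation operators `(E i)ᵀ`, the parity `P`, the
highest weight vector `o`, the weights `wt`. -/
structure SpinMod (m : ℕ) (k : Type*) [Field k] where
  N : Type
  fN : Fintype N
  dN : DecidableEq N
  E : Fin m → Matrix N N k
  P : Matrix N N k
  o : N
  wt : N → Fin m → Bool
  EE0 : ∀ i, E i * E i = 0
  EE : ∀ i j, E i * E j + E j * E i = 0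
  EF : ∀ i j, E i * (E j)ᵀ + (E j)ᵀ * E i = if i = j then 1 else 0
  PP : P * P = 1
  PT : Pᵀ = P
  PE : ∀ i, P * E i + E i * P = 0
  EET : ∀ i, E i * (E i)ᵀ = Matrix.diagonal fun a => if wt a i then 1 else 0
  wo : ∀ i, wt o i = true
  wo' : ∀ a, (∀ i, wt a i = true) → a = o
  Po : P o o = 1
  comm : ∀ A : Matrix N N k, (∀ i, A * E i = E i * A) → (∀ i, A * (E i)ᵀ = (E i)ᵀ * A) → ∃ c : k, A = c • 1

attribute [instance] SpinMod.fN SpinMod.dN

/-- The simply connected group of type `B_m` with its fundamental functions. -/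
structure BSpin (m : ℕ) (k : Type*) [Field k] where
  G : Type*
  gG : Group G
  Φ : Type
  D : FDat (Fin m) Φ k G
  π : G →* GG m k
  π_x : ∀ i s, π (D.x i s) = xr i s
  π_y : ∀ i s, π (D.y i s) = yr i s
  surj : Function.Surjective π
  /-- the positive root elements over a subfield are products of simple ones over the subfield -/
  zgen : ∀ (K : Subfield k) b, ∀ s ∈ K, D.z b s ∈ Subgroup.closure {g | ∃ i, ∃ s' ∈ K, g = D.x i s'}
  Δ_lt : ∀ i g, i.1 + 1 < m → D.Δ i g = mnr i (π g).1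
  Δ_sq : ∀ i g, ¬ i.1 + 1 < m → D.Δ i g ^ 2 = mnr i (π g).1
  ker : ∀ g, π g = 1 → (∀ i, ¬ i.1 + 1 < m → D.Δ i g = 1) → g = 1
  ker_mul : ∀ g, π g = 1 → ∀ h i, ¬ i.1 + 1 < m → D.Δ i (g * h) = D.Δ i g * D.Δ i h
  /-- the torus -/
  Dt : (Fin m → kˣ) →* G
  π_Dt : ∀ c, (π (Dt c)).1 = tor (c * c)
  Δ_Dt : ∀ i c, ¬ i.1 + 1 < m → D.Δ i (Dt c) = ∏ j, (c j : k)
  /-- the sign changes in the Weyl group -/
  wl : ∀ i, ∃ w : G, ∀ c, w * Dt c * w⁻¹ = Dt (Function.update c i (c i)⁻¹)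
  /-- the weights of the spin module -/
  exp : ∀ i, ¬ i.1 + 1 < m → ∀ g h, ∃ A : (Fin m → Bool) → k, ∀ c : Fin m → kˣ,
    D.Δ i (g * Dt c * h) = ∑ ε, A ε * ∏ j, (if ε j then (c j : k) else ((c j)⁻¹ : kˣ))

attribute [instance] BSpin.gG

end Cfsg.Agent.H45.BS
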